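import Mathlib
import Cfsg.Agent.H376.Cyc.Def
import Cfsg.Agent.H377.OddThree
import Cfsg.Agent.H377.SpElt
import Cfsg.Agent.S0245
import Cfsg.Agent.S0246

/-!
# TEAM CYC (S3441), T-NA3: `NA` for `PSp_{2n}(q)` and `PΩ_{2n+1}(q)`, `q` odd (helper375)
-/

set_option autoImplicit false

namespace Cfsg.Agent.H375.Cyc

open Cfsg Cfsg.Agent.H376.Cyc Cfsg.Agent.H94.PG Cfsg.Agent.H377

/-- an element of order `|G|_p` -/
theorem cyclic_of_elt {G : Type*} [Group G] [Finite G] {p : ℕ} (hp : p.Prime) {x : G}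
    (hx : orderOf x = p ^ (Nat.card G).factorization p) (P : Sylow p G) : IsCyclic ↥P := by
  have : Fact p.Prime := ⟨hp⟩
  have hc : Nat.card (Subgroup.zpowers x) = p ^ (Nat.card G).factorization p := by
    rw [Nat.card_zpowers, hx]
  let P0 : Sylow p G := Sylow.ofCard (Subgroup.zpowers x) hc
  have h0 : IsCyclic ↥P0 := by
    have : (P0 : Subgroup G) = Subgroup.zpowers x := rfl
    change IsCyclic (Subgroup.zpowers x)
    infer_instance
  exact isCyclic_of_surjective (Sylow.equiv P0 P).toMonoidHom (Sylow.equiv P0 P).surjective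

theorem not_adj {G : Type*} [Group G] {p : ℕ} (hp : p.Prime) (hp2 : p ≠ 2) (h : ¬ ∃ x : G, orderOf x = 2 * p) :
    ¬ Adj G p 2 := by
  rintro ⟨-, -, -, x, y, hx, hy, hc⟩
  apply h
  refine ⟨y * x, ?_⟩
  rw [hc.symm.orderOf_mul_eq_mul_orderOf_of_coprime, hx, hy]
  rw [hx, hy]
  exact (Nat.coprime_primes Nat.prime_two hp).2 (Ne.symm hp2)

/-- the `p`-part of the order -/
theorem dvd_of_fac {p q m a N : ℕ} (hp : p.Prime) (hp2 : p ≠ 2) (hq : 2 ≤ q) (hm : 1 ≤ m) (hpq : ¬ p ∣ q)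
    (ha : ¬ p ∣ a) (hN : N ≠ 0) (h : a * N = q ^ (m ^ 2) * ∏ i ∈ Finset.range m, (q ^ (2 * (i + 1)) - 1))
    (hi : ∀ i, 1 ≤ i → i < m → ¬ p ∣ q ^ (2 * i) - 1) :
    p ^ N.factorization p ∣ q ^ m - 1 ∨ p ^ N.factorization p ∣ q ^ m + 1 := by
  set v := N.factorization p with hv
  have h1 : p ^ v ∣ q ^ (m ^ 2) * ∏ i ∈ Finset.range m, (q ^ (2 * (i + 1)) - 1) := by
    rw [← h]
    exact (Nat.ordProj_dvd N p).mul_left a
  obtain ⟨m, rfl⟩ : ∃ k, m = k + 1 := ⟨m - 1, by omega⟩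
  rw [Finset.prod_range_succ, ← mul_assoc] at h1
  have hc : Nat.Coprime (p ^ v) (q ^ ((m + 1) ^ 2) * ∏ i ∈ Finset.range m, (q ^ (2 * (i + 1)) - 1)) := by
    apply Nat.Coprime.pow_left
    rw [Nat.Prime.coprime_iff_not_dvd hp]
    intro hd
    rcases (Nat.Prime.dvd_mul hp).1 hd with h2 | h2
    · exact hpq (hp.dvd_of_dvd_pow h2)
    · obtain ⟨i, hi1, hi2⟩ := (hp.prime.dvd_finsetProd_iff _).1 h2
      rw [Finset.mem_range] at hi1
      exact hi (i + 1) (by omega) (by omega) hi2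
  have h3 := hc.dvd_of_dvd_mul_left h1
  rw [mul_comm 2, pow_mul] at h3
  have h4 : (q ^ (m + 1)) ^ 2 - 1 = (q ^ (m + 1) + 1) * (q ^ (m + 1) - 1) := by
    rw [← Nat.sq_sub_sq, one_pow]
  rw [h4] at h3
  by_cases h5 : p ∣ q ^ (m + 1) + 1
  · right
    refine Nat.Coprime.dvd_of_dvd_mul_right ?_ h3
    apply Nat.Coprime.pow_left
    rw [Nat.Prime.coprime_iff_not_dvd hp]
    intro h6
    have h7 := Nat.dvd_sub h5 h6
    have h8 : 1 ≤ q ^ (m + 1) := Nat.one_le_pow _ _ (by omega)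
    rw [show q ^ (m + 1) + 1 - (q ^ (m + 1) - 1) = 2 by omega] at h7
    exact hp2 ((Nat.prime_dvd_prime_iff_eq hp Nat.prime_two).1 h7)
  · left
    refine Nat.Coprime.dvd_of_dvd_mul_left ?_ h3
    apply Nat.Coprime.pow_left
    rwa [Nat.Prime.coprime_iff_not_dvd hp]

theorem odd_prime_pow {p v : ℕ} (hp : p.Prime) (hp2 : p ≠ 2) : Odd (p ^ v) := (hp.odd_of_ne_two hp2).pow

variable {F : Type*} [Field F] [Fintype F]

/-- **NA for `PSp_{2n}(q)`** -/
theorem na_psp {n : ℕ} (hn : 2 ≤ n) (ho : Odd (Fintype.card F)) : NA (PSp n F) := by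
  intro p hp hp5 hd hcyc
  by_contra hcon
  have hp2 : p ≠ 2 := by omega
  have hadj := not_adj hp hp2 hcon
  have hinfo := psp_info (F := F) hn hp hp2 hd hadj
  have hq : 2 ≤ Nat.card F := Finite.one_lt_card
  have hpq : ¬ p ∣ Nat.card F := fun h => hadj (psp_adj_two_of_char hn hp hp2 h)
  have h1 := S0245.result (F := F) rfl n
  have h2 := S0246.result (F := F) rfl n (by omega)
  have h3 := Subgroup.card_eq_card_quotient_mul_card_subgroup
    (Subgroup.center (Matrix.symplecticGroup (Fin n) F))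
  rw [h1, h2, mul_comm (Nat.card _)] at h3
  have ha : ¬ p ∣ Nat.gcd 2 (Fintype.card F - 1) := fun h => by
    have := Nat.le_of_dvd (by norm_num) (h.trans (Nat.gcd_dvd_left _ _))
    omega
  rw [← Nat.card_eq_fintype_card] at h3
  have hfac := dvd_of_fac (N := Nat.card (PSp n F)) hp hp2 hq (by omega) hpq (by rwa [Nat.card_eq_fintype_card])
    Nat.card_pos.ne' h3.symm hinfo.2
  obtain ⟨x, hx⟩ : ∃ x : PSp n F, orderOf x = p ^ (Nat.card (PSp n F)).factorization p := by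
    rcases hfac with h | h
    · exact exists_psp_tor_plus (F := F) (by omega) (pow_pos hp.pos _) (Or.inl ⟨odd_prime_pow hp hp2, h⟩)
    · exact exists_psp_tor_minus (F := F) (by omega) (pow_pos hp.pos _) (Or.inl ⟨odd_prime_pow hp hp2, h⟩)
  obtain ⟨P⟩ := (inferInstance : Nonempty (Sylow p (PSp n F)))
  exact hcyc P (cyclic_of_elt hp hx P)

/-- **NA for `PΩ_{2n+1}(q)`** -/
theorem na_oodd {n : ℕ} (hn : 3 ≤ n) (ho : Odd (Fintype.card F)) : NA (POmega F (quadFormOdd n F)) := by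
  intro p hp hp5 hd hcyc
  by_contra hcon
  have ho' : Odd (Nat.card F) := by rwa [Nat.card_eq_fintype_card]
  have hp2 : p ≠ 2 := by omega
  have hadj := not_adj hp hp2 hcon
  have hinfo := OOdd.info (F := F) ho' hn hp hp2 hd hadj
  have hq : 2 ≤ Nat.card F := Finite.one_lt_card
  have hpq : ¬ p ∣ Nat.card F := fun h => hadj (OOdd.adj_two_of_char ho' hn hp hp2 h)
  have h3 := S0292.result (F := F) (Nat.card_eq_fintype_card (α := F)).symm ho' n hn
  have hfac := dvd_of_fac (N := Nat.card (POmega F (quadFormOdd n F))) hp hp2 hq (by omega) hpq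
    (fun h => hp2 ((Nat.prime_dvd_prime_iff_eq hp Nat.prime_two).1 h)) Nat.card_pos.ne' h3 hinfo.2
  obtain ⟨x, hx⟩ : ∃ x : POmega F (quadFormOdd n F),
      orderOf x = p ^ (Nat.card (POmega F (quadFormOdd n F))).factorization p := by
    rcases hfac with h | h
    · exact OOdd.exists_odd_tor ho' hn (odd_prime_pow hp hp2) (elt_tor_plus (F := F) (k := n) (by omega) h)
    · exact OOdd.exists_odd_tor ho' hn (odd_prime_pow hp hp2) (elt_tor_minus (F := F) (k := n) (by omega) h)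
  obtain ⟨P⟩ := (inferInstance : Nonempty (Sylow p (POmega F (quadFormOdd n F))))
  exact hcyc P (cyclic_of_elt hp hx P)

end Cfsg.Agent.H375.Cyc
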